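import Cfsg.Agent.ZE.Defs
import Cfsg.Agent.ZS.Main

/-!
Case I: two different members of `Z` commute, by the Z*-theorem.
-/

set_option autoImplicit false

namespace Cfsg.Agent.ZE
open MulAction Cfsg.Agent.SE Cfsg.Agent.H5.Invol

universe u

theorem ZH.zrk2 {G Ω : Type u} [Group G] [Finite G] [MulAction G Ω] {Z : Set G} (h : ZH G Ω Z) :
    ZRk2 Z (⊤ : Subgroup G) := by
  by_contra hn
  have := h.simple
  have := h.trans
  have := h.nontriv
  obtain ⟨t, ht⟩ := h.ne
  obtain ⟨O, h1, h2, h3⟩ := ZS.zstar t (h.inv t ht) fun g hg => by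
    by_contra e
    exact hn ⟨_, trivial, t, trivial, h.conj t ht g, ht, e, hg.symm⟩
  rcases h1.eq_bot_or_eq_top with rfl | rfl
  · obtain ⟨a, ha, hu⟩ := h.fix t ht
    obtain ⟨b, hb⟩ := exists_ne a
    obtain ⟨g, rfl⟩ := exists_smul_eq G a b
    have e : g * t * g⁻¹ = t := by
      have := Subgroup.mem_bot.1 (h3 g)
      rw [mul_eq_one_iff_eq_inv, (h.inv t ht).inv_eq] at this
      exact this
    exact hb (hu _ (by have := conj_smul_fix (g := g) ha; rwa [e] at this))
  · exact (h.inv t ht).not_mem h2 trivial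

end Cfsg.Agent.ZE
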